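import Cfsg.Agent.Lib.Mult.Fi22.CVC0
import Cfsg.Agent.Lib.Grp.Fi22.Main

set_option autoImplicit false
set_option maxRecDepth 100000
set_option Elab.async false

namespace Cfsg.Agent.Mult.Fi22

open Cfsg.Agent.CG Cfsg.Agent.CG.Fi22

theorem pairs : ∀ p ∈ cvP, (∀ a ∈ p.1 ++ p.2, a ∈ tcS) ∧ ev act.gen (p.1 ++ p.2) = ev act.gen (p.2 ++ p.1) :=
  pairs_of_chk base cvc100

theorem pl0 : PL tcR cvP (ZMod 2) ([1,0].map Nat.cast) :=
  haveI : NeZero cv0.m := ⟨by decide⟩
  Mono.pl (D := cv0) (by decide) (by decide +kernel)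
    (show cv0.chk tcR 0 1725 = true from (Mono.chk_append (Mono.chk_append (Mono.chk_append (Mono.chk_append (Mono.chk_append (Mono.chk_append (Mono.chk_append (Mono.chk_append (Mono.chk_append cvc0 cvc1) cvc2) cvc3) cvc4) cvc5) cvc6) cvc7) cvc8) cvc9))
    cvc10

theorem pl1 : PL tcR cvP (ZMod 3) ([0,1].map Nat.cast) :=
  haveI : NeZero cv1.m := ⟨by decide⟩
  Mono.pl (D := cv1) (by decide) (by decide +kernel)
    (show cv1.chk tcR 0 2070 = true from (Mono.chk_append (Mono.chk_append (Mono.chk_append (Mono.chk_append (Mono.chk_append (Mono.chk_append (Mono.chk_append (Mono.chk_append (Mono.chk_append (Mono.chk_append (Mono.chk_append (Mono.chk_append (Mono.chk_append (Mono.chk_append (Mono.chk_append (Mono.chk_append (Mono.chk_append (Mono.chk_append (Mono.chk_append (Mono.chk_append (Mono.chk_append (Mono.chk_append (Mono.chk_append (Mono.chk_append (Mono.chk_append (Mono.chk_append (Mono.chk_append (Mono.chk_append (Mono.chk_append (Mono.chk_append (Mono.chk_append (Mono.chk_append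 (Mono.chk_append (Mono.chk_append (Mono.chk_append (Mono.chk_append (Mono.chk_append (Mono.chk_append (Mono.chk_append (Mono.chk_append (Mono.chk_append (Mono.chk_append (Mono.chk_append (Mono.chk_append (Mono.chk_append (Mono.chk_append (Mono.chk_append (Mono.chk_append (Mono.chk_append (Mono.chk_append (Mono.chk_append (Mono.chk_append (Mono.chk_append (Mono.chk_append (Mono.chk_append (Mono.chk_append (Mono.chk_append (Mono.chk_append (Mono.chk_append (Mono.chk_append (Mono.chk_append (Mono.chk_append (Mono.chk_append (Mono.chk_append (Mono.chk_append (Mono.chk_append (Mono.chk_append (Mono.chk_append (Mono.chk_append (Mono.chk_append (Mono.chk_append (Mono.chk_append (Mono.chk_append (Mono.chk_append (Mono.chk_append (Mono.chk_append (Mono.chk_append (Mono.chk_append (Mono.chk_append (Mono.chk_append (Mono.chk_append (Mono.chk_append (Mono.chk_append (Mono.chk_append (Mono.chk_append (Mono.chk_append (Mono.chk_append cvc11 cvc12) cvc13) cvc14) cvc15) cvc16) cvc17) cvc18) cvc19)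 cvc20) cvc21) cvc22) cvc23) cvc24) cvc25) cvc26) cvc27) cvc28) cvc29) cvc30) cvc31) cvc32) cvc33) cvc34) cvc35) cvc36) cvc37) cvc38) cvc39) cvc40) cvc41) cvc42) cvc43) cvc44) cvc45) cvc46) cvc47) cvc48) cvc49) cvc50) cvc51) cvc52) cvc53) cvc54) cvc55) cvc56) cvc57) cvc58) cvc59) cvc60) cvc61) cvc62) cvc63) cvc64) cvc65) cvc66) cvc67) cvc68) cvc69) cvc70) cvc71) cvc72) cvc73) cvc74) cvc75) cvc76) cvc77) cvc78) cvc79) cvc80) cvc81) cvc82) cvc83) cvc84) cvc85) cvc86) cvc87) cvc88) cvc89) cvc90) cvc91) cvc92) cvc93) cvc94) cvc95) cvc96) cvc97) cvc98))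
    cvc99

theorem ex : EX PG (Multiplicative (ZMod 2 × ZMod 3)) :=
  PL.ex bounds rels clS card.ge (pl0.prod pl1) pairs (top_of_spanL (k := 6) (by decide +kernel))

end Cfsg.Agent.Mult.Fi22
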